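import Mathlib
import Cfsg.Agent.Lib.Helper19.DG33.Model
import Cfsg.Agent.Lib.Helper86.SU3Common

/-!
# DG33 (S3670), [RAW] sub-package [RPZ]: `Z` is the centre of the unipotent radical `P`
-/

set_option autoImplicit false

namespace Cfsg.Agent.Lib.Helper75.DG33

open Matrix Cfsg.Agent.Lib.Helper45 Cfsg.Agent.Lib.Helper86.Un Cfsg.Agent.Lib.Helper86.SU3
  Cfsg.Agent.Lib.Helper14.DG33 Cfsg.Agent.Lib.Helper19.DG33

universe u

section

variable {F : Type u} [Field F]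

/-- the unitriangular matrix with parameters `x`, `y` -/
def rpzU (σ : F →+* F) (x y : F) : Matrix (Fin 3) (Fin 3) F := !![1, x, y; 0, 1, -σ x; 0, 0, 1]

theorem rpz_valid {σ : F →+* F} (hσ : ∀ x, σ (σ x) = x) {x y : F} (h : y + σ y + x * σ x = 0) :
    ValidU σ (rpzU σ x y) := by
  refine ⟨?_, ?_⟩
  · unfold rpzU
    rw [Matrix.det_fin_three]
    simp
  · unfold rpzU
    rw [adj3]
    ext i j
    fin_cases i <;> fin_cases j <;>
      simp [Matrix.mul_apply, Fin.sum_univ_three, hσ]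
    linear_combination h

variable [Fintype F]

theorem rpz_mat_P (hF : Fintype.card F = 3 ^ 2) {g : UJ 3 (sigmaQ hF)} (hg : g ∈ Pm hF) :
    mat g = !![1, mat g 0 1, mat g 0 2; 0, 1, mat g 1 2; 0, 0, 1] := by
  obtain ⟨⟨h10, h20, h21⟩, h00, h11, h22⟩ := hg
  ext i j
  fin_cases i <;> fin_cases j <;> simp [h10, h20, h21, h00, h11, h22]

theorem rpz_mul01 (hF : Fintype.card F = 3 ^ 2) {p q : UJ 3 (sigmaQ hF)} (hp : p ∈ Pm hF)
    (hq : q ∈ Pm hF) : mat (p * q) 0 1 = mat p 0 1 + mat q 0 1 := by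
  obtain ⟨⟨p10, p20, p21⟩, p00, p11, p22⟩ := hp
  obtain ⟨⟨q10, q20, q21⟩, q00, q11, q22⟩ := hq
  rw [mat_mul', Matrix.mul_apply, Fin.sum_univ_three, p00, q11, q21]
  ring

theorem rpz_mul12 (hF : Fintype.card F = 3 ^ 2) {p q : UJ 3 (sigmaQ hF)} (hp : p ∈ Pm hF)
    (hq : q ∈ Pm hF) : mat (p * q) 1 2 = mat p 1 2 + mat q 1 2 := by
  obtain ⟨⟨p10, p20, p21⟩, p00, p11, p22⟩ := hp
  obtain ⟨⟨q10, q20, q21⟩, q00, q11, q22⟩ := hq
  rw [mat_mul', Matrix.mul_apply, Fin.sum_univ_three, p10, p11, q22]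
  ring

theorem rpz_inv01 (hF : Fintype.card F = 3 ^ 2) {p : UJ 3 (sigmaQ hF)} (hp : p ∈ Pm hF) :
    mat p⁻¹ 0 1 = -mat p 0 1 := by
  have h := rpz_mul01 hF hp ((Pm hF).inv_mem hp)
  rw [mul_inv_cancel, mat_one'] at h
  have h0 : (1 : Matrix (Fin 3) (Fin 3) F) 0 1 = 0 := by simp
  rw [h0] at h
  linear_combination -h

theorem rpz_inv12 (hF : Fintype.card F = 3 ^ 2) {p : UJ 3 (sigmaQ hF)} (hp : p ∈ Pm hF) :
    mat p⁻¹ 1 2 = -mat p 1 2 := by
  have h := rpz_mul12 hF hp ((Pm hF).inv_mem hp)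
  rw [mul_inv_cancel, mat_one'] at h
  have h0 : (1 : Matrix (Fin 3) (Fin 3) F) 1 2 = 0 := by simp
  rw [h0] at h
  linear_combination -h

theorem rpz_two_ne (hF : Fintype.card F = 3 ^ 2) : (2 : F) ≠ 0 := by
  intro h
  have h9 : ((Fintype.card F : ℕ) : F) = 0 := Nat.cast_card_eq_zero F
  rw [hF] at h9
  have h1 : (1 : F) = 0 := by
    have : ((3 ^ 2 : ℕ) : F) = 4 * 2 + 1 := by norm_num
    rw [this, h] at h9
    simp at h9
  exact one_ne_zero h1

/-- the relation between the two off-diagonal entries of an element of `P` -/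
theorem rpz_rel (hF : Fintype.card F = 3 ^ 2) {p : UJ 3 (sigmaQ hF)} (hp : p ∈ Pm hF) :
    mat p 1 2 + sigmaQ hF (mat p 0 1) = 0 := by
  have hv := (valid_mat p).2
  have hpm := rpz_mat_P hF hp
  obtain ⟨x, y, f, hm⟩ : ∃ x y f : F, mat p = !![1, x, y; 0, 1, f; 0, 0, 1] := ⟨_, _, _, hpm⟩
  rw [hm, adj3] at hv
  have e := congrFun (congrFun hv 1) 2
  simp [Matrix.mul_apply, Fin.sum_univ_three] at e
  have h01 : mat p 0 1 = x := by rw [hm]; rfl
  have h12 : mat p 1 2 = f := by rw [hm]; rfl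
  rw [h01, h12]
  linear_combination e

end

/-- [RPZ] -/
theorem pkgRPZ : PkgRPZ.{u} := by
  intro F _ _ hF
  have hs : Herm (sigmaQ hF) := herm_sigmaQ hF
  have hσ : ∀ x, sigmaQ hF (sigmaQ hF x) = x := sig_sig hF
  refine ⟨?_, ?_, ?_, ?_⟩
  · -- (i)
    intro z hz p hp
    have hzm := rpz_mat_P hF hz.1
    rw [hz.2.1, hz.2.2] at hzm
    have hpm := rpz_mat_P hF hp
    apply mat_injective
    rw [mat_mul', mat_mul', hzm, hpm]
    ext i j
    fin_cases i <;> fin_cases j <;>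
      simp [Matrix.mul_apply, Fin.sum_univ_three]
    ring
  · -- (ii)
    intro p hp q hq
    have hpi := (Pm hF).inv_mem hp
    have hqi := (Pm hF).inv_mem hq
    have hpq := (Pm hF).mul_mem hp hq
    have hpqp := (Pm hF).mul_mem hpq hpi
    refine ⟨(Pm hF).mul_mem hpqp hqi, ?_, ?_⟩
    · rw [rpz_mul01 hF hpqp hqi, rpz_mul01 hF hpq hpi, rpz_mul01 hF hp hq, rpz_inv01 hF hp,
        rpz_inv01 hF hq]
      ring
    · rw [rpz_mul12 hF hpqp hqi, rpz_mul12 hF hpq hpi, rpz_mul12 hF hp hq, rpz_inv12 hF hp,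
        rpz_inv12 hF hq]
      ring
  · -- (iii)
    intro p hp hpZ
    have hrel := rpz_rel hF hp
    have hpm := rpz_mat_P hF hp
    obtain ⟨x, y, f, hm⟩ : ∃ x y f : F, mat p = !![1, x, y; 0, 1, f; 0, 0, 1] := ⟨_, _, _, hpm⟩
    have h01 : mat p 0 1 = x := by rw [hm]; rfl
    have h12 : mat p 1 2 = f := by rw [hm]; rfl
    rw [h01, h12] at hrel
    have hx : x ≠ 0 := by
      intro hx0
      apply hpZ
      refine ⟨hp, ?_, ?_⟩
      · rw [h01, hx0]
      · rw [h12]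
        rw [hx0, map_zero, add_zero] at hrel
        exact hrel
    obtain ⟨j, hj0, hj⟩ := hs.exists_skew
    obtain ⟨y', hy'⟩ := hs.exists_Q (x * j)
    have hval := rpz_valid hσ hy'
    obtain ⟨q, hqm⟩ : ∃ q : UJ 3 (sigmaQ hF),
        mat q = !![1, x * j, y'; 0, 1, -sigmaQ hF (x * j); 0, 0, 1] := ⟨_, mat_ofMat hval⟩
    refine ⟨q, ?_, ?_⟩
    · refine ⟨⟨?_, ?_, ?_⟩, ?_, ?_, ?_⟩ <;> rw [hqm] <;> simp
    · intro hcomm
      have e1 : mat (p * q) 0 2 = y' + x * (-sigmaQ hF (x * j)) + y := by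
        rw [mat_mul', hm, hqm]
        simp [Matrix.mul_apply, Fin.sum_univ_three]
      have e2 : mat (q * p) 0 2 = y + (x * j) * f + y' := by
        rw [mat_mul', hm, hqm]
        simp [Matrix.mul_apply, Fin.sum_univ_three]
      rw [hcomm, e2, map_mul] at e1
      have hσx : sigmaQ hF x ≠ 0 := by
        intro h0
        apply hx
        have := congrArg (sigmaQ hF) h0
        rw [hσ, map_zero] at this
        exact this
      have hf : f = -sigmaQ hF x := by linear_combination hrel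
      have hσj : sigmaQ hF j = -j := by linear_combination hj
      rw [hf, hσj] at e1
      have h2 : (2 : F) * x * sigmaQ hF x * j = 0 := by linear_combination -e1
      have h2' := rpz_two_ne hF
      have h3 : (2 : F) * x * sigmaQ hF x * j ≠ 0 :=
        mul_ne_zero (mul_ne_zero (mul_ne_zero h2' hx) hσx) hj0
      exact h3 h2
  · -- (iv)
    obtain ⟨y, hy⟩ := hs.exists_Q 1
    have hval := rpz_valid hσ hy
    have hqm : mat (ofMat (sigmaQ hF) (rpzU (sigmaQ hF) 1 y)) = rpzU (sigmaQ hF) 1 y :=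
      mat_ofMat hval
    refine ⟨ofMat (sigmaQ hF) (rpzU (sigmaQ hF) 1 y), ?_, ?_⟩
    · refine ⟨⟨?_, ?_, ?_⟩, ?_, ?_, ?_⟩ <;> rw [hqm] <;> simp [rpzU]
    · intro hZ
      have h := hZ.2.1
      rw [hqm] at h
      simp [rpzU] at h

end Cfsg.Agent.Lib.Helper75.DG33
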