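import Mathlib
import Cfsg.Agent.Lib.Helper19.DG33.Model
import Cfsg.Agent.Lib.Helper86.SU3Common
import Cfsg.Agent.S0283

/-!
# DG33 (S3670), [RAW] sub-package [RPERF]: the antidiagonal model of `SU(3,3)` is perfect
-/

set_option autoImplicit false
set_option linter.style.haveILetI false

namespace Cfsg.Agent.Lib.Helper75.DG33

open Cfsg.Agent.Lib.Helper45 Cfsg.Agent.Lib.Helper86.Un Cfsg.Agent.Lib.Helper86.SU3
  Cfsg.Agent.Lib.Helper14.DG33 Cfsg.Agent.Lib.Helper19.DG33

universe u

/-- [RPERF] -/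
theorem pkgRPerf : PkgRPerf.{u} := by
  intro hIso F _ _ hF
  obtain ⟨e⟩ := hIso F hF
  haveI hS : IsSimpleGroup (Cfsg.PSU 3 F 3) := Cfsg.Agent.S0283.result hF 3 le_rfl (by decide)
  haveI hS' : IsSimpleGroup (UJ 3 (sigmaQ hF)) := e.isSimpleGroup
  have hcard : Nat.card (UJ 3 (sigmaQ hF)) = 6048 := by
    have := card_UJ3 hF 2 rfl
    rw [this]
    norm_num
  haveI : Finite (UJ 3 (sigmaQ hF)) := Nat.finite_of_card_ne_zero (by rw [hcard]; norm_num)
  have hn : (commutator (UJ 3 (sigmaQ hF))).Normal := inferInstance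
  rcases hn.eq_bot_or_eq_top with h | h
  · exfalso
    have hc : ∀ a b : UJ 3 (sigmaQ hF), a * b = b * a := by
      intro a b
      have h1 : a * b * a⁻¹ * b⁻¹ ∈ commutator (UJ 3 (sigmaQ hF)) := by
        have := Subgroup.commutator_mem_commutator (H₁ := (⊤ : Subgroup (UJ 3 (sigmaQ hF))))
          (H₂ := ⊤) (Subgroup.mem_top a) (Subgroup.mem_top b)
        rw [commutatorElement_def] at this
        exact this
      rw [h, Subgroup.mem_bot] at h1
      have h2 : a * b * a⁻¹ = b := by
        have := congrArg (· * b) h1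
        simpa using this
      have h3 := congrArg (· * a) h2
      simpa using h3
    letI : CommGroup (UJ 3 (sigmaQ hF)) :=
      { (inferInstance : Group (UJ 3 (sigmaQ hF))) with mul_comm := hc }
    have hp : (Nat.card (UJ 3 (sigmaQ hF))).Prime :=
      IsSimpleGroup.prime_card
    rw [hcard] at hp
    norm_num at hp
  · exact h

end Cfsg.Agent.Lib.Helper75.DG33
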